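-- Team project R3 (S1788), package [TWE6] (helper65): `²E₆(q)` in characteristic 2 has 2-rank ≥ 3.
import Mathlib
import Cfsg.Agent.Lib.Helper17.R3.Defs
import Cfsg.Agent.Lib.Helper17.TwE6p
import Cfsg.Agent.Lib.Helper18.FrobFix

set_option autoImplicit false

namespace Cfsg.Agent.Lib.Helper65.R3

open Cfsg Cfsg.Lie

open Cfsg.Agent.Lib.Helper18 (xU wordU coe_xU coe_wordU e6mem)

set_option maxRecDepth 100000 in
theorem e6_tab46 : (56 : ℕ) < 72 ∧ (36 : ℕ) < 72 ∧ (46 : ℕ) < 72 ∧ (46 : ℕ) ≠ chevE6.neg 56 ∧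
    (46 : ℕ) ≠ chevE6.neg 36 ∧ chevE6.commTerms 56 46 = [] ∧ chevE6.commTerms 36 46 = [] ∧
    chevE6.cartan 0 46 = 0 ∧ chevE6.cartan 0 56 = 2 ∧ chevE6.cartan 0 36 = 0 ∧
    chevE6.simple 0 = 56 := by
  decide +kernel

section

variable {K : Type} [Field K]

theorem x_inj (s : ℕ) (hs : s < chevE6.nroots) (a b : K)
    (h : xU chevE6 e6mem s a = xU chevE6 e6mem s b) : a = b := by
  have h2 : xU chevE6 e6mem s (a - b) = 1 := by
    have h3 : xU chevE6 e6mem s (a - b) = xU chevE6 e6mem s a * (xU chevE6 e6mem s b)⁻¹ := by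
      rw [Cfsg.Agent.Lib.Helper17.xU_inv, Cfsg.Agent.Lib.Helper17.xU_mul_xU chevE6 e6mem s hs,
        sub_eq_add_neg]
    rw [h3, h, mul_inv_cancel]
  have h4 := congrArg Units.val h2
  rw [coe_xU, Units.val_one] at h4
  exact sub_eq_zero.mp ((Cfsg.Agent.S1024.result chevE6 e6mem s hs (a - b)).mp h4)

/-- the twisted root element `x_{p₁}(t) x_{p₆}(φ t)` -/
noncomputable def eA (φ : K →+* K) (t : K) : GL chevE6.Idx K :=
  xU chevE6 e6mem 56 t * xU chevE6 e6mem 36 (φ t)

/-- the root element `x_{p₂}(c)` -/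
noncomputable def eB (c : K) : GL chevE6.Idx K := xU chevE6 e6mem 46 c

theorem eA_eq (φ : K →+* K) (t : K) :
    eA φ t = Cfsg.Agent.Lib.Helper17.e6X φ false (true, t) := rfl

theorem eA_add (φ : K →+* K) (x y : K) : eA φ x * eA φ y = eA φ (x + y) :=
  Cfsg.Agent.Lib.Helper17.e6X_add φ false true x y

theorem eB_add (x y : K) : eB x * eB y = eB (x + y) :=
  Cfsg.Agent.Lib.Helper17.xU_mul_xU chevE6 e6mem 46
    (by rw [Cfsg.Agent.Lib.Helper17.e6_nroots]; norm_num) x y

theorem eA_zero (φ : K →+* K) : eA φ 0 = 1 := by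
  unfold eA
  rw [map_zero, Cfsg.Agent.Lib.Helper17.xU_zero, Cfsg.Agent.Lib.Helper17.xU_zero, one_mul]

theorem eB_zero : eB (0 : K) = 1 := Cfsg.Agent.Lib.Helper17.xU_zero chevE6 e6mem 46

theorem eAB (φ : K →+* K) (t c : K) : eA φ t * eB c = eB c * eA φ t := by
  obtain ⟨l56, l36, l46, n56, n36, c56, c36, -, -, -, -⟩ := e6_tab46
  have h1 : eB c * xU chevE6 e6mem 56 t = xU chevE6 e6mem 56 t * eB c :=
    Cfsg.Agent.Lib.Helper17.xU_comm_of_terms chevE6 e6mem 56 46
      (by rw [Cfsg.Agent.Lib.Helper17.e6_nroots]; exact l56)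
      (by rw [Cfsg.Agent.Lib.Helper17.e6_nroots]; exact l46) (by norm_num) n56 c56 t c
  have h2 : eB c * xU chevE6 e6mem 36 (φ t) = xU chevE6 e6mem 36 (φ t) * eB c :=
    Cfsg.Agent.Lib.Helper17.xU_comm_of_terms chevE6 e6mem 36 46
      (by rw [Cfsg.Agent.Lib.Helper17.e6_nroots]; exact l36)
      (by rw [Cfsg.Agent.Lib.Helper17.e6_nroots]; exact l46) (by norm_num) n36 c36 (φ t) c
  unfold eA
  rw [mul_assoc, ← h2, ← mul_assoc, ← h1, mul_assoc]

theorem eAB_mul (φ : K →+* K) (t c t' c' : K) :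
    eA φ t * eB c * (eA φ t' * eB c') = eA φ (t + t') * eB (c + c') := by
  rw [mul_assoc, ← mul_assoc (eB c), ← eAB φ t' c, mul_assoc, eB_add, ← mul_assoc, eA_add]

end

/-- [TWE6] `²E₆(q)` in characteristic 2. -/
theorem pkgTwE6 : Cfsg.Agent.Lib.Helper17.R3.PkgTwE6 := by
  intro K _ _ _ q hq hK
  classical
  obtain ⟨φ, hφ, -⟩ := Cfsg.Agent.Lib.Helper18.exists_frob_sq hq hK
  obtain ⟨l56, l36, l46, -, -, -, -, k46, k56, k36, hs0⟩ := e6_tab46
  have hq1 : 1 < q := hq.one_lt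
  have hq0 : q ≠ 0 := by omega
  have h2 : ∀ x : K, x + x = 0 := CharTwo.add_self_eq_zero
  have hAmem : ∀ t, eA φ t ∈ twistedE6 K q := fun t =>
    Cfsg.Agent.Lib.Helper17.e6X_mem φ hφ false (true, t)
  have hBmem : ∀ c : K, c ^ q = c → eB c ∈ twistedE6 K q := fun c hc =>
    Cfsg.Agent.Lib.Helper18.e6_single_mem q 46 (by decide) c hc
  have hcb : ∀ b : Bool, ((if b then 1 else 0 : K)) ^ q = (if b then 1 else 0 : K) := by
    intro b
    cases b <;> simp [hq0]
  have hex : ∃ y : K, y ≠ 0 ∧ y * y ≠ 1 := by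
    by_contra hne
    push Not at hne
    have hsub : (Finset.univ : Finset K) ⊆ {0, 1, -1} := by
      intro y _
      by_cases hy : y = 0
      · simp [hy]
      · rcases mul_self_eq_one_iff.mp (hne y hy) with h | h
        · simp [h]
        · simp [h]
    have h3 : Fintype.card K ≤ 3 := (Finset.card_le_card hsub).trans Finset.card_le_three
    have h4 : 2 ^ 2 ≤ q ^ 2 := Nat.pow_le_pow_left hq1 2
    omega
  refine Cfsg.Agent.Lib.Helper17.R3.r3_of_params
    (fun p : K × Bool => (⟨eA φ p.1 * eB (if p.2 then 1 else 0 : K),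
      mul_mem (hAmem p.1) (hBmem _ (hcb p.2))⟩ : ↥(twistedE6 K q))) ?_ ?_ ?_ ?_
  · -- injective
    rintro ⟨t, b⟩ ⟨t', b'⟩ h
    have h' : eA φ t * eB (if b then 1 else 0 : K) = eA φ t' * eB (if b' then 1 else 0 : K) :=
      congrArg Subtype.val h
    generalize hc : (if b then 1 else 0 : K) = c at h'
    generalize hc' : (if b' then 1 else 0 : K) = c' at h'
    have key : eA φ (t + t') = eB (c + c') := by
      have e1 : eA φ (t + t') = eA φ t' * eA φ t := by rw [eA_add, add_comm]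
      have e2 : eB (c + c') = eB c' * eB c := by rw [eB_add, add_comm]
      have e3 : eA φ t' * (eA φ t * eB c) * eB c = eA φ t' * (eA φ t' * eB c') * eB c := by
        rw [h']
      have e4 : eA φ t' * (eA φ t * eB c) * eB c = eA φ t' * eA φ t := by
        rw [mul_assoc, mul_assoc, eB_add, h2, eB_zero, mul_one]
      have e5 : eA φ t' * (eA φ t' * eB c') * eB c = eB c' * eB c := by
        rw [← mul_assoc, eA_add, h2, eA_zero, one_mul]
      rw [e1, e2, ← e4, e3, e5]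
    obtain ⟨y, hy0, hy1⟩ := hex
    have c1 := Cfsg.Agent.Lib.Helper17.h_conj_gen (F := K) chevE6 e6mem 0 56
      (by rw [Cfsg.Agent.Lib.Helper17.e6_rank]; norm_num)
      (by rw [Cfsg.Agent.Lib.Helper17.e6_nroots]; exact l56) y hy0
    have c2 := Cfsg.Agent.Lib.Helper17.h_conj_gen (F := K) chevE6 e6mem 0 36
      (by rw [Cfsg.Agent.Lib.Helper17.e6_rank]; norm_num)
      (by rw [Cfsg.Agent.Lib.Helper17.e6_nroots]; exact l36) y hy0
    have c3 := Cfsg.Agent.Lib.Helper17.h_conj_gen (F := K) chevE6 e6mem 0 46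
      (by rw [Cfsg.Agent.Lib.Helper17.e6_rank]; norm_num)
      (by rw [Cfsg.Agent.Lib.Helper17.e6_nroots]; exact l46) y hy0
    rw [k56] at c1
    rw [k36] at c2
    rw [k46] at c3
    simp only [zpow_zero, one_mul] at c2 c3
    generalize hh : wordU chevE6 e6mem (chevE6.hWord (chevE6.simple 0) y) = hT at c1 c2 c3
    have key' : xU chevE6 e6mem 56 (t + t') * xU chevE6 e6mem 36 (φ (t + t')) =
        xU chevE6 e6mem 46 (c + c') := key
    have k1 : hT * (xU chevE6 e6mem 56 (t + t') * xU chevE6 e6mem 36 (φ (t + t'))) =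
        hT * xU chevE6 e6mem 46 (c + c') := by rw [key']
    rw [← mul_assoc, c1, mul_assoc, c2, ← mul_assoc, c3] at k1
    have k2 : xU chevE6 e6mem 56 (y ^ (2 : ℤ) * (t + t')) * xU chevE6 e6mem 36 (φ (t + t')) =
        xU chevE6 e6mem 46 (c + c') := mul_right_cancel k1
    have k3 : xU chevE6 e6mem 56 (y ^ (2 : ℤ) * (t + t')) = xU chevE6 e6mem 56 (t + t') := by
      have e : xU chevE6 e6mem 56 (y ^ (2 : ℤ) * (t + t')) * xU chevE6 e6mem 36 (φ (t + t')) =
          xU chevE6 e6mem 56 (t + t') * xU chevE6 e6mem 36 (φ (t + t')) := by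
        rw [k2, key']
      exact mul_right_cancel e
    have k4 : y ^ (2 : ℤ) * (t + t') = t + t' :=
      x_inj 56 (by rw [Cfsg.Agent.Lib.Helper17.e6_nroots]; exact l56) _ _ k3
    have hd0 : t + t' = 0 := by
      by_contra hne
      have e : y ^ (2 : ℤ) = 1 := mul_right_cancel₀ hne (k4.trans (one_mul _).symm)
      rw [zpow_ofNat, sq] at e
      exact hy1 e
    have he0 : c + c' = 0 := by
      have e : xU chevE6 e6mem 46 (c + c') = xU chevE6 e6mem 46 (0 : K) := by
        have e1 : eA φ (t + t') = 1 := by rw [hd0, eA_zero]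
        have e2 : eB (c + c') = 1 := by rw [← key, e1]
        have e3 : eB (0 : K) = 1 := eB_zero
        exact e2.trans e3.symm
      exact x_inj 46 (by rw [Cfsg.Agent.Lib.Helper17.e6_nroots]; exact l46) _ _ e
    have ht : t = t' := CharTwo.add_eq_zero.mp hd0
    have hcc : c = c' := CharTwo.add_eq_zero.mp he0
    have hb : b = b' := by
      rw [← hc, ← hc'] at hcc
      cases b <;> cases b' <;> simp at hcc <;> rfl
    rw [ht, hb]
  · -- commute
    rintro ⟨t, b⟩ ⟨t', b'⟩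
    apply Subtype.ext
    show eA φ t * eB _ * (eA φ t' * eB _) = eA φ t' * eB _ * (eA φ t * eB _)
    rw [eAB_mul, eAB_mul, add_comm t, add_comm (if b then 1 else 0 : K)]
  · -- squares
    rintro ⟨t, b⟩
    apply Subtype.ext
    show eA φ t * eB _ * (eA φ t * eB _) = 1
    rw [eAB_mul, h2, h2, eA_zero, eB_zero, one_mul]
  · -- cardinality
    rw [Nat.card_prod, Nat.card_eq_fintype_card, Nat.card_eq_fintype_card, hK, Fintype.card_bool]
    have h4 : 2 ^ 2 ≤ q ^ 2 := Nat.pow_le_pow_left hq1 2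
    omega

end Cfsg.Agent.Lib.Helper65.R3
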